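import Mathlib
import Cfsg.Agent.Lib.Helper57.TSO.Defs
import Cfsg.Agent.Lib.Helper40.SympWall
import Cfsg.Agent.Lib.Helper13.Symp
import Cfsg.Agent.Lib.Helper94.Symp

/-!
# TSO (S5980): [BXM] a symplectic matrix with square `-1` is `Sp`-conjugate to `Jmat d κ`
-/

set_option autoImplicit false
open scoped Matrix Polynomial

namespace Cfsg.Agent.Lib.Helper11.TSO

open Cfsg.Agent.Lib.Helper57.TSO Matrix Polynomial

universe u

variable {F : Type u} [Field F] {d : ℕ}

/-- The characteristic polynomial of a symplectic matrix with square `-1`. -/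
theorem charpoly_of_sq_neg_one (h2 : (2 : F) ≠ 0) (M : Matrix (Fin d ⊕ Fin d) (Fin d ⊕ Fin d) F)
    (hM : M ∈ Matrix.symplecticGroup (Fin d) F) (hsq : M * M = -1) :
    M.charpoly = (X ^ 2 + 1) ^ d := by
  classical
  have hJ : Mᵀ * J (Fin d) F = -(J (Fin d) F * M) := by
    have h1 := SymplecticGroup.mem_iff'.mp hM
    have h3 : Mᵀ * J (Fin d) F * M * M = J (Fin d) F * M := by rw [h1]
    rw [Matrix.mul_assoc, hsq, Matrix.mul_neg, Matrix.mul_one] at h3
    rw [← h3, neg_neg]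
  have hneg : -M = (-(J (Fin d) F)) * (Mᵀ * J (Fin d) F) := by
    rw [hJ, neg_mul_neg, ← Matrix.mul_assoc, Matrix.J_squared, Matrix.neg_mul,
      Matrix.one_mul]
  have hcp : (-M).charpoly = M.charpoly := by
    rw [hneg, Matrix.charpoly_mul_comm, Matrix.mul_assoc, Matrix.mul_neg, Matrix.J_squared, neg_neg,
      Matrix.mul_one, Matrix.charpoly_transpose]
  have hprod : (-M).charmatrix * M.charmatrix =
      Matrix.scalar (Fin d ⊕ Fin d) ((X : F[X]) ^ 2 + 1) := by
    have e1 : (-M).charmatrix =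
        Matrix.scalar (Fin d ⊕ Fin d) (X : F[X]) + (C : F →+* F[X]).mapMatrix M := by
      unfold Matrix.charmatrix
      rw [map_neg, sub_neg_eq_add]
    have e2 : M.charmatrix =
        Matrix.scalar (Fin d ⊕ Fin d) (X : F[X]) - (C : F →+* F[X]).mapMatrix M := rfl
    have hc : Commute (Matrix.scalar (Fin d ⊕ Fin d) (X : F[X]))
        ((C : F →+* F[X]).mapMatrix M) :=
      Matrix.scalar_commute _ (fun r => Commute.all _ _) _
    rw [e1, e2, ← hc.mul_self_sub_mul_self_eq, ← map_mul, ← map_mul, hsq, map_neg, map_one,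
      sub_neg_eq_add, pow_two, map_add, map_one]
  have hdet : (-M).charpoly * M.charpoly = ((X : F[X]) ^ 2 + 1) ^ (d + d) := by
    have h1 : (-M).charpoly * M.charpoly = ((-M).charmatrix * M.charmatrix).det := by
      rw [Matrix.det_mul]
      rfl
    rw [h1, hprod, Matrix.scalar_apply, Matrix.det_diagonal, Finset.prod_const, Finset.card_univ,
      Fintype.card_sum, Fintype.card_fin]
  rw [hcp, pow_add] at hdet
  rcases mul_self_eq_mul_self_iff.mp hdet with h | h
  · exact h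
  · exfalso
    have hm : M.charpoly.Monic := Matrix.charpoly_monic M
    have hg : (((X : F[X]) ^ 2 + 1) ^ d).Monic := by
      have : ((X : F[X]) ^ 2 + C 1).Monic := monic_X_pow_add_C (1 : F) two_ne_zero
      rw [C_1] at this
      exact this.pow d
    have h5 : M.charpoly.leadingCoeff = -1 := by
      rw [h, leadingCoeff_neg, hg.leadingCoeff]
    rw [hm.leadingCoeff] at h5
    apply h2
    linear_combination h5

/-- `Jmat d κ` is symplectic. -/
theorem Jmat_mem (κ : Fin d → F) (hκ : ∀ j, κ j ≠ 0) :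
    Jmat d κ ∈ Matrix.symplecticGroup (Fin d) F := by
  classical
  rw [SymplecticGroup.mem_iff]
  unfold Jmat Matrix.J
  rw [Matrix.fromBlocks_multiply, Matrix.fromBlocks_transpose, Matrix.fromBlocks_multiply]
  have e : (Matrix.diagonal fun j => -(κ j)⁻¹) * (Matrix.diagonal κ) = (-1 : Matrix (Fin d) (Fin d) F) := by
    rw [Matrix.diagonal_mul_diagonal]
    have : (fun i => -(κ i)⁻¹ * κ i) = fun _ => (-1 : F) := by
      funext i
      rw [neg_mul, inv_mul_cancel₀ (hκ i)]
    rw [this, ← Matrix.diagonal_neg]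
    congr 1
  have e' : (Matrix.diagonal κ) * (Matrix.diagonal fun j => -(κ j)⁻¹) = (-1 : Matrix (Fin d) (Fin d) F) := by
    rw [Matrix.diagonal_mul_diagonal]
    have : (fun i => κ i * -(κ i)⁻¹) = fun _ => (-1 : F) := by
      funext i
      rw [mul_neg, mul_inv_cancel₀ (hκ i)]
    rw [this, ← Matrix.diagonal_neg]
    congr 1
  simp only [Matrix.zero_mul, Matrix.mul_zero, Matrix.mul_one, Matrix.mul_neg, zero_add, add_zero,
    Matrix.transpose_zero, Matrix.diagonal_transpose, Matrix.neg_mul, neg_zero, e, e', neg_neg]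

/-- `Jmat d κ` has square `-1`. -/
theorem Jmat_sq (κ : Fin d → F) (hκ : ∀ j, κ j ≠ 0) : Jmat d κ * Jmat d κ = -1 := by
  classical
  unfold Jmat
  rw [Matrix.fromBlocks_multiply]
  have e : (Matrix.diagonal fun j => -(κ j)⁻¹) * (Matrix.diagonal κ) = (-1 : Matrix (Fin d) (Fin d) F) := by
    rw [Matrix.diagonal_mul_diagonal]
    have : (fun i => -(κ i)⁻¹ * κ i) = fun _ => (-1 : F) := by
      funext i
      rw [neg_mul, inv_mul_cancel₀ (hκ i)]
    rw [this, ← Matrix.diagonal_neg]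
    congr 1
  have e' : (Matrix.diagonal κ) * (Matrix.diagonal fun j => -(κ j)⁻¹) = (-1 : Matrix (Fin d) (Fin d) F) := by
    rw [Matrix.diagonal_mul_diagonal]
    have : (fun i => κ i * -(κ i)⁻¹) = fun _ => (-1 : F) := by
      funext i
      rw [mul_neg, mul_inv_cancel₀ (hκ i)]
    rw [this, ← Matrix.diagonal_neg]
    congr 1
  simp only [Matrix.zero_mul, Matrix.mul_zero, zero_add, add_zero, e, e']
  rw [← Matrix.fromBlocks_one, Matrix.fromBlocks_neg, neg_zero]

/-- [BXM] a symplectic matrix with square `-1` is `Sp`-conjugate to `Jmat d κ`, for every choice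
of non-zero `κ`. -/
theorem pkgBXm : PkgBXm.{u} := by
  intro F _ _ hodd d x hx hx2 κ hκ
  classical
  have h2 : (2 : F) ≠ 0 := by
    intro h
    have hch : ringChar F = 2 := by
      apply CharP.ringChar_of_prime_eq_zero Nat.prime_two
      exact_mod_cast h
    have h3 := FiniteField.even_card_of_char_two hch
    rcases hodd with ⟨k, hk⟩
    omega
  have h4 : ((4 : ℕ) : F) ≠ 0 := by
    have : ((4 : ℕ) : F) = 2 * 2 := by norm_num
    rw [this]
    exact mul_ne_zero h2 h2
  have hxS : (x : Matrix (Fin d ⊕ Fin d) (Fin d ⊕ Fin d) F) ∈ Matrix.symplecticGroup (Fin d) F :=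
    Cfsg.Agent.Lib.Helper13.mem_symplecticGroup_of_sympForm d
      ((Cfsg.Agent.Lib.Helper94.mem_spGL_iff d x).mp hx)
  have hxx : (x : Matrix (Fin d ⊕ Fin d) (Fin d ⊕ Fin d) F) *
      (x : Matrix (Fin d ⊕ Fin d) (Fin d ⊕ Fin d) F) = -1 := by
    rw [← pow_two]
    exact hx2
  have hJS := Jmat_mem κ hκ
  have hJJ := Jmat_sq κ hκ
  obtain ⟨A, hA⟩ : ∃ A : Matrix.symplecticGroup (Fin d) F, A.1 = Jmat d κ := ⟨⟨_, hJS⟩, rfl⟩
  obtain ⟨B, hB⟩ : ∃ B : Matrix.symplecticGroup (Fin d) F,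
      B.1 = (x : Matrix (Fin d ⊕ Fin d) (Fin d ⊕ Fin d) F) := ⟨⟨_, hxS⟩, rfl⟩
  have hA4 : A ^ 4 = 1 := by
    apply Subtype.ext
    rw [SubmonoidClass.coe_pow, hA]
    show Jmat d κ ^ 4 = 1
    rw [show (4 : ℕ) = 2 + 2 from rfl, pow_add, pow_two, hJJ, neg_mul_neg, mul_one]
  have hB4 : B ^ 4 = 1 := by
    apply Subtype.ext
    rw [SubmonoidClass.coe_pow, hB]
    show (x : Matrix (Fin d ⊕ Fin d) (Fin d ⊕ Fin d) F) ^ 4 = 1
    rw [show (4 : ℕ) = 2 + 2 from rfl, pow_add, pow_two, hxx, neg_mul_neg, mul_one]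
  have hconj := Cfsg.Agent.Lib.Helper40.SympWall.sp_conj_of_charpoly A B 4 4 h4 h4 hA4 hB4
    (by rw [hA, hB, charpoly_of_sq_neg_one h2 _ hJS hJJ, charpoly_of_sq_neg_one h2 _ hxS hxx])
  obtain ⟨c, hc⟩ := isConj_iff.mp hconj
  have hcc : c.1 * (c⁻¹).1 = 1 := by
    have := congrArg Subtype.val (mul_inv_cancel c)
    rw [Submonoid.coe_mul] at this
    exact this
  have hcc' : (c⁻¹).1 * c.1 = 1 := by
    have := congrArg Subtype.val (inv_mul_cancel c)
    rw [Submonoid.coe_mul] at this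
    exact this
  refine ⟨⟨c.1, (c⁻¹).1, hcc, hcc'⟩, ?_, ?_⟩
  · rw [Cfsg.Agent.Lib.Helper94.mem_spGL_iff]
    intro u v
    exact Cfsg.Agent.Lib.Helper13.sympForm_mulVec_of_mem d c.2 u v
  · have h5 : B * c = c * A := by
      rw [← hc]
      group
    have h6 := congrArg Subtype.val h5
    rw [Submonoid.coe_mul, Submonoid.coe_mul, hA, hB] at h6
    exact h6

end Cfsg.Agent.Lib.Helper11.TSO
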