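import Mathlib
import Cfsg.Agent.Lib.Helper57.TSO.Defs
import Cfsg.Agent.Lib.Helper40.SympWall
import Cfsg.Agent.Lib.Helper13.Symp
import Cfsg.Agent.Lib.Helper94.Symp

/-!
# TSO (S5980): [BXP] a symplectic involution is `Sp`-conjugate to a sign matrix `diag(ε, ε)`
-/

set_option autoImplicit false
open scoped Matrix Polynomial

namespace Cfsg.Agent.Lib.Helper11.TSO

open Cfsg.Agent.Lib.Helper57.TSO Matrix Polynomial

universe u

theorem prod_ite_lt {R : Type*} [CommMonoid R] (a b : R) : ∀ (d t : ℕ), t ≤ d →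
    ∏ i ∈ Finset.range d, (if i < t then a else b) = a ^ t * b ^ (d - t)
  | 0, t, h => by
    have : t = 0 := by omega
    subst this
    simp
  | d + 1, t, h => by
    rw [Finset.prod_range_succ]
    by_cases ht : t ≤ d
    · rw [prod_ite_lt a b d t ht, if_neg (by omega), show d + 1 - t = (d - t) + 1 by omega,
        pow_succ, mul_assoc]
    · have : t = d + 1 := by omega
      subst this
      rw [Finset.prod_congr rfl (fun i hi => if_pos (by have := Finset.mem_range.mp hi; omega)),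
        Finset.prod_const, Finset.card_range, if_pos (by omega), Nat.sub_self, pow_zero, mul_one,
        pow_succ]

variable {F : Type u} [Field F] {d : ℕ}

/-- The characteristic polynomial of a symplectic involution. -/
theorem charpoly_of_sq_one (h2 : (2 : F) ≠ 0) (M : Matrix (Fin d ⊕ Fin d) (Fin d ⊕ Fin d) F)
    (hM : M ∈ Matrix.symplecticGroup (Fin d) F) (hsq : M * M = 1) :
    ∃ u t : ℕ, u + t = d ∧
      M.charpoly = (X - C (1 : F)) ^ (u + u) * (X - C (-1 : F)) ^ (t + t) := by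
  classical
  have hprod : (-M).charmatrix * M.charmatrix =
      Matrix.scalar (Fin d ⊕ Fin d) ((X : F[X]) ^ 2 - 1) := by
    have e1 : (-M).charmatrix =
        Matrix.scalar (Fin d ⊕ Fin d) (X : F[X]) + (C : F →+* F[X]).mapMatrix M := by
      unfold Matrix.charmatrix
      rw [map_neg, sub_neg_eq_add]
    have e2 : M.charmatrix =
        Matrix.scalar (Fin d ⊕ Fin d) (X : F[X]) - (C : F →+* F[X]).mapMatrix M := rfl
    have hc : Commute (Matrix.scalar (Fin d ⊕ Fin d) (X : F[X]))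
        ((C : F →+* F[X]).mapMatrix M) :=
      Matrix.scalar_commute _ (fun r => Commute.all _ _) _
    rw [e1, e2, ← hc.mul_self_sub_mul_self_eq, ← map_mul, ← map_mul, hsq, map_one, pow_two,
      map_sub, map_one]
  have hdet : (-M).charpoly * M.charpoly = ((X : F[X]) ^ 2 - 1) ^ (d + d) := by
    have h1 : (-M).charpoly * M.charpoly = ((-M).charmatrix * M.charmatrix).det := by
      rw [Matrix.det_mul]
      rfl
    rw [h1, hprod, Matrix.scalar_apply, Matrix.det_diagonal, Finset.prod_const, Finset.card_univ,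
      Fintype.card_sum, Fintype.card_fin]
  have hfac : ((X : F[X]) ^ 2 - 1) = (X - C 1) * (X + C 1) := by
    rw [C_1]
    ring
  have hg0 : ((X : F[X]) ^ 2 - 1) ^ (d + d) ≠ 0 := by
    apply pow_ne_zero
    have : ((X : F[X]) ^ 2 - C 1).Monic := monic_X_pow_sub_C (1 : F) two_ne_zero
    rw [C_1] at this
    exact this.ne_zero
  have hgs : (((X : F[X]) ^ 2 - 1) ^ (d + d)).Splits := by
    rw [hfac]
    exact ((Splits.X_sub_C 1).mul (Splits.X_add_C 1)).pow _
  have hm : M.charpoly.Monic := Matrix.charpoly_monic M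
  have hs : M.charpoly.Splits := hgs.of_dvd hg0 ⟨(-M).charpoly, by rw [← hdet, mul_comm]⟩
  have hroot : ∀ a ∈ M.charpoly.roots, a = 1 ∨ a = -1 := by
    intro a ha
    have h1 : M.charpoly.eval a = 0 := (mem_roots hm.ne_zero).mp ha
    have h3 := congrArg (Polynomial.eval a) hdet
    rw [eval_mul, h1, mul_zero, eval_pow, eval_sub, eval_pow, eval_X, eval_one] at h3
    have h4 : a ^ 2 - 1 = 0 := eq_zero_of_pow_eq_zero h3.symm
    have h5 : (a - 1) * (a + 1) = 0 := by
      rw [← h4]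
      ring
    rcases mul_eq_zero.mp h5 with h | h
    · left
      exact sub_eq_zero.mp h
    · right
      exact eq_neg_of_add_eq_zero_left h
  obtain ⟨m₁, hm₁⟩ : ∃ m₁, m₁ = M.charpoly.roots.filter (· = (1 : F)) := ⟨_, rfl⟩
  obtain ⟨m₂, hm₂⟩ : ∃ m₂, m₂ = M.charpoly.roots.filter (fun a => ¬ a = (1 : F)) := ⟨_, rfl⟩
  have hsum : m₁ + m₂ = M.charpoly.roots := by
    rw [hm₁, hm₂]
    exact Multiset.filter_add_not _ _
  have h1 : m₁ = Multiset.replicate (Multiset.card m₁) (1 : F) := by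
    rw [Multiset.eq_replicate_card]
    intro b hb
    rw [hm₁] at hb
    exact (Multiset.mem_filter.mp hb).2
  have h1' : m₂ = Multiset.replicate (Multiset.card m₂) (-1 : F) := by
    rw [Multiset.eq_replicate_card]
    intro b hb
    rw [hm₂] at hb
    obtain ⟨hb1, hb2⟩ := Multiset.mem_filter.mp hb
    rcases hroot b hb1 with h | h
    · exact absurd h hb2
    · exact h
  obtain ⟨c₁, hc₁⟩ : ∃ c₁, c₁ = Multiset.card m₁ := ⟨_, rfl⟩
  obtain ⟨c₂, hc₂⟩ : ∃ c₂, c₂ = Multiset.card m₂ := ⟨_, rfl⟩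
  rw [← hc₁] at h1
  rw [← hc₂] at h1'
  have hχ : M.charpoly = (X - C (1 : F)) ^ c₁ * (X - C (-1 : F)) ^ c₂ := by
    conv_lhs => rw [hs.eq_prod_roots_of_monic hm, ← hsum, h1, h1']
    rw [Multiset.map_add, Multiset.prod_add, Multiset.map_replicate, Multiset.prod_replicate,
      Multiset.map_replicate, Multiset.prod_replicate]
  have hcard : c₁ + c₂ = d + d := by
    have h3 := hs.natDegree_eq_card_roots
    rw [Matrix.charpoly_natDegree_eq_dim, Fintype.card_sum, Fintype.card_fin, ← hsum,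
      Multiset.card_add, ← hc₁, ← hc₂] at h3
    exact h3.symm
  have hev : M.charpoly.eval 0 = 1 := by
    rw [Matrix.eval_charpoly, map_zero, zero_sub, Matrix.det_neg, Fintype.card_sum, Fintype.card_fin,
      Even.neg_one_pow ⟨d, rfl⟩, one_mul]
    exact SymplecticGroup.det_eq_one hM
  have hpar : Even c₁ := by
    rw [hχ, eval_mul, eval_pow, eval_pow, eval_sub, eval_sub, eval_X, eval_C, eval_C, zero_sub,
      sub_neg_eq_add, zero_add, one_pow, mul_one] at hev
    have hne : (-1 : F) ≠ 1 := by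
      intro h
      apply h2
      linear_combination -h
    exact (neg_one_pow_eq_one_iff_even hne).mp hev
  obtain ⟨u, hu⟩ := hpar
  refine ⟨u, d - u, by omega, ?_⟩
  rw [hχ, hu]
  congr 2
  omega

/-- [BXP] a symplectic involution is `Sp`-conjugate to a diagonal sign matrix `diag(ε, ε)`. -/
theorem pkgBXp : PkgBXp.{u} := by
  intro F _ _ h2 d x hx hx2
  classical
  have hxS : (x : Matrix (Fin d ⊕ Fin d) (Fin d ⊕ Fin d) F) ∈ Matrix.symplecticGroup (Fin d) F :=
    Cfsg.Agent.Lib.Helper13.mem_symplecticGroup_of_sympForm d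
      ((Cfsg.Agent.Lib.Helper94.mem_spGL_iff d x).mp hx)
  have hxx : (x : Matrix (Fin d ⊕ Fin d) (Fin d ⊕ Fin d) F) *
      (x : Matrix (Fin d ⊕ Fin d) (Fin d ⊕ Fin d) F) = 1 := by
    rw [← pow_two]
    exact hx2
  obtain ⟨u, t, hut, hχ⟩ := charpoly_of_sq_one h2 _ hxS hxx
  obtain ⟨ε, hε⟩ : ∃ ε : Fin d → F, ε = fun j : Fin d => if (j : ℕ) < t then (-1 : F) else 1 := ⟨_, rfl⟩
  have hε1 : ∀ j, ε j = 1 ∨ ε j = -1 := by
    intro j
    rw [hε]
    by_cases h : (j : ℕ) < t
    · right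
      exact if_pos h
    · left
      exact if_neg h
  have hεε : ∀ j, ε j * ε j = 1 := by
    intro j
    rcases hε1 j with h | h <;> rw [h] <;> ring
  have hDD : (Matrix.diagonal ε) * (Matrix.diagonal ε) = (1 : Matrix (Fin d) (Fin d) F) := by
    rw [Matrix.diagonal_mul_diagonal]
    have : (fun i => ε i * ε i) = fun _ => (1 : F) := funext hεε
    rw [this, Matrix.diagonal_one]
  have hDb : Dmat d ε = Matrix.fromBlocks (Matrix.diagonal ε) 0 0 (Matrix.diagonal ε) := by
    unfold Dmat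
    rw [Matrix.fromBlocks_diagonal]
  have hJS : Dmat d ε ∈ Matrix.symplecticGroup (Fin d) F := by
    rw [SymplecticGroup.mem_iff, hDb]
    unfold Matrix.J
    rw [Matrix.fromBlocks_multiply, Matrix.fromBlocks_transpose, Matrix.fromBlocks_multiply]
    simp only [Matrix.zero_mul, Matrix.mul_zero, Matrix.mul_one, Matrix.mul_neg, zero_add, add_zero,
      Matrix.transpose_zero, Matrix.diagonal_transpose, Matrix.neg_mul, neg_zero, hDD]
  have hJJ : Dmat d ε * Dmat d ε = 1 := by
    rw [hDb, Matrix.fromBlocks_multiply]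
    simp only [Matrix.zero_mul, Matrix.mul_zero, zero_add, add_zero, hDD]
    exact Matrix.fromBlocks_one
  have hcD : (Dmat d ε).charpoly = (x : Matrix (Fin d ⊕ Fin d) (Fin d ⊕ Fin d) F).charpoly := by
    have hP : ∏ j : Fin d, ((X : F[X]) - C (ε j)) = (X - C (-1 : F)) ^ t * (X - C (1 : F)) ^ u := by
      have e1 : ∏ j : Fin d, ((X : F[X]) - C (ε j)) =
          ∏ j : Fin d, (if (j : ℕ) < t then ((X : F[X]) - C (-1 : F)) else (X - C (1 : F))) := by
        apply Finset.prod_congr rfl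
        intro j _
        have hj : ε j = if (j : ℕ) < t then (-1 : F) else 1 := by rw [hε]
        rw [hj]
        by_cases h : (j : ℕ) < t
        · rw [if_pos h, if_pos h]
        · rw [if_neg h, if_neg h]
      rw [e1, Fin.prod_univ_eq_prod_range
        (fun n => if n < t then ((X : F[X]) - C (-1 : F)) else (X - C (1 : F))) d,
        prod_ite_lt _ _ d t (by omega), show d - t = u by omega]
    unfold Dmat
    rw [Matrix.charpoly_diagonal, Fintype.prod_sum_type]
    simp only [Sum.elim_inl, Sum.elim_inr]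
    rw [hP, hχ]
    ring
  obtain ⟨A, hA⟩ : ∃ A : Matrix.symplecticGroup (Fin d) F, A.1 = Dmat d ε := ⟨⟨_, hJS⟩, rfl⟩
  obtain ⟨B, hB⟩ : ∃ B : Matrix.symplecticGroup (Fin d) F,
      B.1 = (x : Matrix (Fin d ⊕ Fin d) (Fin d ⊕ Fin d) F) := ⟨⟨_, hxS⟩, rfl⟩
  have hA2 : A ^ 2 = 1 := by
    apply Subtype.ext
    rw [SubmonoidClass.coe_pow, hA]
    show Dmat d ε ^ 2 = 1
    rw [pow_two, hJJ]
  have hB2 : B ^ 2 = 1 := by
    apply Subtype.ext
    rw [SubmonoidClass.coe_pow, hB]
    show (x : Matrix (Fin d ⊕ Fin d) (Fin d ⊕ Fin d) F) ^ 2 = 1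
    rw [pow_two, hxx]
  have h2' : ((2 : ℕ) : F) ≠ 0 := by exact_mod_cast h2
  have hconj := Cfsg.Agent.Lib.Helper40.SympWall.sp_conj_of_charpoly A B 2 2 h2' h2' hA2 hB2
    (by rw [hA, hB, hcD])
  obtain ⟨c, hc⟩ := isConj_iff.mp hconj
  have hcc : c.1 * (c⁻¹).1 = 1 := by
    have := congrArg Subtype.val (mul_inv_cancel c)
    rw [Submonoid.coe_mul] at this
    exact this
  have hcc' : (c⁻¹).1 * c.1 = 1 := by
    have := congrArg Subtype.val (inv_mul_cancel c)
    rw [Submonoid.coe_mul] at this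
    exact this
  refine ⟨⟨c.1, (c⁻¹).1, hcc, hcc'⟩, ε, ?_, hε1, ?_⟩
  · rw [Cfsg.Agent.Lib.Helper94.mem_spGL_iff]
    intro v w
    exact Cfsg.Agent.Lib.Helper13.sympForm_mulVec_of_mem d c.2 v w
  · have h5 : B * c = c * A := by
      rw [← hc]
      group
    have h6 := congrArg Subtype.val h5
    rw [Submonoid.coe_mul, Submonoid.coe_mul, hA, hB] at h6
    exact h6

end Cfsg.Agent.Lib.Helper11.TSO
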